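import Mathlib

/-!
# Counting conjugacy classes over a normal abelian subgroup
-/

set_option autoImplicit false

namespace Cfsg.Agent.H717.Count

open Finset

variable {D : Type*} [Group D]

/-- The class number as a sum of centralizer orders. -/
theorem sum_card_centralizer [Fintype D] :
    ∑ x : D, Nat.card (Subgroup.centralizer ({x} : Set D)) = Nat.card (ConjClasses D) * Nat.card D := by
  rw [← card_comm_eq_card_conjClasses_mul_card D]
  let e : {p : D × D // Commute p.1 p.2} ≃ Σ x : D, Subgroup.centralizer ({x} : Set D) :=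
    { toFun := fun p => ⟨p.1.1, ⟨p.1.2, by
        rw [Subgroup.mem_centralizer_singleton_iff]; exact p.2.symm.eq⟩⟩
      invFun := fun q => ⟨(q.1, (q.2 : D)), by
        have := q.2.2
        rw [Subgroup.mem_centralizer_singleton_iff] at this
        exact this.symm⟩
      left_inv := fun p => rfl
      right_inv := fun q => rfl }
  rw [Nat.card_congr e, Nat.card_sigma]

/-- `|C(x)| ≤ |C_B(x)| |D : B|`. -/
theorem card_centralizer_le [Finite D] (B : Subgroup D) [B.Normal] (x : D) :
    Nat.card (Subgroup.centralizer ({x} : Set D)) ≤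
      Nat.card ((B ⊓ Subgroup.centralizer ({x} : Set D) : Subgroup D)) * B.index := by
  set C := Subgroup.centralizer ({x} : Set D) with hC
  have h1 : Nat.card ((B ⊓ C : Subgroup D)) * B.relIndex C = Nat.card C := by
    rw [← Subgroup.inf_relIndex_right B C, ← Subgroup.relIndex_bot_left,
      Subgroup.relIndex_mul_relIndex _ _ _ bot_le inf_le_right, Subgroup.relIndex_bot_left]
  have h2 : B.relIndex C ≤ B.index :=
    Nat.le_of_dvd (Nat.pos_of_ne_zero Subgroup.index_ne_zero_of_finite)
      (Subgroup.relIndex_dvd_index_of_normal B C)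
  rw [← h1]
  exact Nat.mul_le_mul_left _ h2

/-- **The class number count.** -/
theorem index_mul_le [Finite D] (B : Subgroup D) [B.Normal] (t : ℕ)
    (ht : ∀ c : D, c ∉ B → Nat.card ((B ⊓ Subgroup.centralizer ({c} : Set D) : Subgroup D)) ≤ t) :
    B.index * Nat.card (ConjClasses D) + t ≤ Nat.card B + B.index ^ 2 * t := by
  classical
  haveI := Fintype.ofFinite D
  set m := B.index with hm
  set b := Nat.card B with hb
  have hbm : b * m = Nat.card D := B.card_mul_index
  have hb0 : 0 < b := Nat.card_pos
  have hm0 : 0 < m := Nat.pos_of_ne_zero Subgroup.index_ne_zero_of_finite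
  have hcard : ∀ x : D, Nat.card (Subgroup.centralizer ({x} : Set D)) = ∑ c : D, if c * x = x * c then 1 else 0 := by
    intro x
    rw [Nat.card_eq_fintype_card, Fintype.card_subtype, Finset.card_filter]
    refine Finset.sum_congr rfl fun c _ => ?_
    simp only [Subgroup.mem_centralizer_singleton_iff]
  have hcardB : ∀ c : D, Nat.card ((B ⊓ Subgroup.centralizer ({c} : Set D) : Subgroup D)) =
      ∑ x ∈ univ.filter (· ∈ B), if c * x = x * c then 1 else 0 := by
    intro c
    rw [Nat.card_eq_fintype_card, Fintype.card_subtype, ← Finset.card_filter, Finset.filter_filter]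
    congr 1
    ext x
    simp only [Finset.mem_filter, Finset.mem_univ, true_and, Subgroup.mem_inf,
      Subgroup.mem_centralizer_singleton_iff]
    constructor
    · rintro ⟨h1, h2⟩; exact ⟨h1, h2.symm⟩
    · rintro ⟨h1, h2⟩; exact ⟨h1, h2.symm⟩
  have hBcard : (univ.filter (· ∈ B)).card = b := by
    rw [hb, Nat.card_eq_fintype_card, Fintype.card_subtype]
  have hNcard : (univ.filter (· ∉ B)).card + b = b * m := by
    rw [hbm, Nat.card_eq_fintype_card, ← hBcard, add_comm, ← Finset.card_univ,
      Finset.card_filter_add_card_filter_not]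
  have hsum := sum_card_centralizer (D := D)
  rw [← Finset.sum_filter_add_sum_filter_not univ (· ∈ B)] at hsum
  -- first part
  have h1 : ∑ x ∈ univ.filter (· ∈ B), Nat.card (Subgroup.centralizer ({x} : Set D)) ≤
      b * b + (univ.filter (· ∉ B)).card * t := by
    simp only [hcard]
    rw [Finset.sum_comm]
    rw [← Finset.sum_filter_add_sum_filter_not univ (· ∈ B)]
    refine Nat.add_le_add ?_ ?_
    · refine (Finset.sum_le_card_nsmul _ _ b ?_).trans (by rw [hBcard, smul_eq_mul])
      intro c _
      rw [← hBcard, ← Finset.card_filter]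
      exact Finset.card_filter_le _ _
    · refine (Finset.sum_le_card_nsmul _ _ t ?_).trans (by rw [smul_eq_mul])
      intro c hc
      rw [← hcardB]
      exact ht c (Finset.mem_filter.1 hc).2
  have h2 : ∑ x ∈ univ.filter (· ∉ B), Nat.card (Subgroup.centralizer ({x} : Set D)) ≤
      (univ.filter (· ∉ B)).card * (t * m) := by
    refine (Finset.sum_le_card_nsmul _ _ (t * m) ?_).trans (by rw [smul_eq_mul])
    intro c hc
    exact (card_centralizer_le B c).trans (Nat.mul_le_mul_right _ (ht c (Finset.mem_filter.1 hc).2))
  set N := (univ.filter (· ∉ B)).card with hN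
  have h3 : Nat.card (ConjClasses D) * (b * m) ≤ b * b + N * t + N * (t * m) := by
    rw [hbm, ← hsum]
    exact Nat.add_le_add h1 h2
  have h4 : b * (m * Nat.card (ConjClasses D) + t) ≤ b * (b + m ^ 2 * t) := by
    have h5 : N * t + N * (t * m) + b * t * (1 + m) = b * m * t * (1 + m) := by
      rw [← hNcard]; ring
    nlinarith
  exact Nat.le_of_mul_le_mul_left h4 hb0

end Cfsg.Agent.H717.Count
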