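import Mathlib
import Cfsg.Agent.H717.FieldP
import Cfsg.Agent.H717.Dickson
import Cfsg.Agent.H717.SmallClass
import Cfsg.Agent.S4201

/-!
# Coprime transitive linear groups: abelian subgroups of index two, and the plane
-/

set_option autoImplicit false
set_option linter.style.haveILetI false
set_option linter.unusedSectionVars false

namespace Cfsg.Agent.H717.Plane

open Cfsg.Agent.H717.Semi Cfsg.Agent.H717.FieldP

universe u v

variable {D : Type v} {E : Type u} [Group D] [Finite D] [AddCommGroup E] [Finite E] [Nontrivial E]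
  [DistribMulAction D E] [FaithfulSMul D E]

theorem card_conj_congr {G H : Type*} [Group G] [Group H] (e : G ≃* H) :
    Nat.card (ConjClasses G) = Nat.card (ConjClasses H) := by
  refine Nat.card_congr (Quotient.congr e.toEquiv fun a b => ?_)
  change IsConj a b ↔ IsConj (e a) (e b)
  rw [isConj_iff, isConj_iff]
  constructor
  · rintro ⟨c, hc⟩
    exact ⟨e c, by rw [← hc, map_mul, map_mul, map_inv]⟩
  · rintro ⟨c, hc⟩
    refine ⟨e.symm c, e.injective ?_⟩
    rw [map_mul, map_mul, map_inv, MulEquiv.apply_symm_apply, hc]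

/-- A commutative transitive linear group is semilinear. -/
theorem isSemi_of_comm (htr : ∀ x y : E, x ≠ 0 → y ≠ 0 → ∃ d : D, d • x = y)
    {p : ℕ} [hp : Fact p.Prime] (hpE : ∀ e : E, p • e = 0) (h : ∀ a b : D, a * b = b * a) : IsSemi D E :=
  isSemi_of_centralizer_le htr hpE ⊤ (fun a _ b _ => h a b) le_top

/-- An abelian subgroup of index at most two makes a transitive linear group semilinear. -/
theorem isSemi_of_index_two (htr : ∀ x y : E, x ≠ 0 → y ≠ 0 → ∃ d : D, d • x = y)
    {p : ℕ} [hp : Fact p.Prime] (hpE : ∀ e : E, p • e = 0)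
    (B : Subgroup D) [B.Normal] (hB : ∀ a ∈ B, ∀ b ∈ B, a * b = b * a) (hi : B.index ∣ 2) : IsSemi D E := by
  set C := Subgroup.centralizer (B : Set D) with hC
  have hBC : B ≤ C := by
    intro b hb
    rw [hC, Subgroup.mem_centralizer_iff]
    intro a ha
    exact hB a ha b hb
  have h1 := Subgroup.relIndex_mul_index hBC
  by_cases hCB : C ≤ B
  · exact isSemi_of_centralizer_le htr hpE B hB hCB
  · have h2 : B.relIndex C ≠ 1 := by
      rw [Ne, Subgroup.relIndex_eq_one]
      exact hCB
    have h3 : B.relIndex C ∣ 2 := (Dvd.intro _ h1).trans hi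
    have h4 : B.relIndex C = 2 := ((Nat.dvd_prime Nat.prime_two).1 h3).resolve_left h2
    have h5 : C.index = 1 := by
      rw [h4] at h1
      have h6 : B.index ≤ 2 := Nat.le_of_dvd (by norm_num) hi
      have h7 : 0 < B.index := Nat.pos_of_ne_zero Subgroup.index_ne_zero_of_finite
      omega
    have hCt : C = ⊤ := Subgroup.index_eq_one.1 h5
    have hBi : B.index = 2 := by rw [← h1, h4, h5]
    refine isSemi_of_comm htr hpE ?_
    have hk : (QuotientGroup.mk' B).ker ≤ Subgroup.center D := by
      rw [QuotientGroup.ker_mk']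
      intro b hb
      rw [Subgroup.mem_center_iff]
      intro g
      have hg : g ∈ C := by rw [hCt]; trivial
      exact ((Subgroup.mem_centralizer_iff.1 hg) b hb).symm
    haveI : IsCyclic (D ⧸ B) := by
      have h8 : Nat.card (D ⧸ B) = 2 := by rw [← Subgroup.index_eq_card]; exact hBi
      haveI : Fact (Nat.Prime 2) := ⟨Nat.prime_two⟩
      exact isCyclic_of_prime_card h8
    exact fun a b => commutative_of_cyclic_center_quotient (QuotientGroup.mk' B) hk a b

/-- **The plane.** -/
theorem plane (htr : ∀ x y : E, x ≠ 0 → y ≠ 0 → ∃ d : D, d • x = y)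
    {p : ℕ} [hp : Fact p.Prime] (hpE : ∀ e : E, p • e = 0) (hcop : ¬ p ∣ Nat.card D)
    (hE : Nat.card E = p ^ 2) {v : E} (hv : v ≠ 0) :
    IsSemi D E ∨
    Nat.card (ConjClasses D) + Nat.card (ConjClasses (MulAction.stabilizer D v)) < Nat.card E := by
  letI : Module (ZMod p) E := AddCommGroup.zmodModule (n := p) hpE
  have hp2 := hp.out.two_le
  have hfr : Module.finrank (ZMod p) E = 2 := by
    have h1 := Module.natCard_eq_pow_finrank (K := ZMod p) (V := E)
    rw [hE, Nat.card_zmod] at h1
    exact (Nat.pow_right_injective hp2 h1).symm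
  have hlin : ∀ (d : D) (c : ZMod p) (e : E), d • (c • e) = c • (d • e) := by
    intro d c e
    exact ZMod.map_smul (DistribMulAction.toAddMonoidEnd D E d) c e
  obtain ⟨Z, hZn, hZ, hcases⟩ := Dickson.cases p hfr hlin hcop
  -- the order of `Z`
  have hZp : Nat.card Z ≤ p - 1 := by
    choose c hc using fun z : Z => (hZ z).1 z.2
    have hc0 : ∀ z : Z, c z ≠ 0 := by
      intro z h0
      have := hc z v
      rw [h0, zero_smul, smul_eq_zero_iff_eq] at this
      exact hv this
    have hinj : Function.Injective (fun z : Z => (⟨c z, hc0 z⟩ : ({0}ᶜ : Set (ZMod p)))) := by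
      intro a b hab
      have h1 : c a = c b := congrArg Subtype.val hab
      apply Subtype.ext
      apply FaithfulSMul.eq_of_smul_eq_smul (α := E)
      intro e
      rw [hc, hc, h1]
    have h2 := Nat.card_le_card_of_injective _ hinj
    rwa [Nat.card_coe_set_eq, Set.ncard_compl, Set.ncard_singleton, Nat.card_zmod] at h2
  have hkZ : Nat.card (ConjClasses Z) ≤ Nat.card Z :=
    Nat.card_le_card_of_surjective ConjClasses.mk ConjClasses.mk_surjective
  have hkD := Cfsg.Agent.S4201.result Z
  have hcD := card_eq htr hv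
  have hcZ : Nat.card Z * Nat.card (D ⧸ Z) = Nat.card D := by
    rw [← Subgroup.index_eq_card]; exact Z.card_mul_index
  set h := Nat.card (MulAction.stabilizer D v) with hh
  have hkH : Nat.card (ConjClasses (MulAction.stabilizer D v)) ≤ h :=
    Nat.card_le_card_of_surjective ConjClasses.mk ConjClasses.mk_surjective
  have hdvd : Nat.card (D ⧸ Z) ∣ Nat.card D := ⟨Nat.card Z, by rw [← hcZ, mul_comm]⟩
  -- numbers
  have key : ∀ g k : ℕ, Nat.card (D ⧸ Z) = g → Nat.card (ConjClasses (D ⧸ Z)) = k → k ≤ 5 →
      (g = 12 ∨ g = 24 ∨ g = 60) →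
      Nat.card (ConjClasses D) + Nat.card (ConjClasses (MulAction.stabilizer D v)) < Nat.card E := by
    intro g k hg hk hk5 hg3
    rw [hg] at hcZ hdvd
    have e2 : p ≠ 2 := by
      rintro rfl
      apply hcop
      refine Dvd.dvd.trans ?_ hdvd
      rcases hg3 with h | h | h <;> rw [h] <;> norm_num
    have e3 : p ≠ 3 := by
      rintro rfl
      apply hcop
      refine Dvd.dvd.trans ?_ hdvd
      rcases hg3 with h | h | h <;> rw [h] <;> norm_num
    have e4 : p ≠ 4 := by
      rintro rfl
      exact absurd hp.out (by norm_num)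
    have e5 : g = 60 → p ≠ 5 := by
      rintro h rfl
      apply hcop
      refine Dvd.dvd.trans ?_ hdvd
      rw [h]; norm_num
    have e6 : p ≠ 6 := by
      rintro rfl
      exact absurd hp.out (by norm_num)
    -- `h (p + 1) ≤ g`
    have e7 : h * (p + 1) ≤ g := by
      rw [hE] at hcD
      have h1 : Nat.card Z * g = (p ^ 2 - 1) * h := hcZ.trans hcD
      have h2 : p ^ 2 - 1 = (p - 1) * (p + 1) := by
        obtain ⟨t, rfl⟩ : ∃ t, p = t + 1 := ⟨p - 1, by omega⟩
        rw [Nat.add_sub_cancel]
        have : (t + 1) ^ 2 = t * (t + 1 + 1) + 1 := by ring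
        omega
      rw [h2] at h1
      have h3 : (p - 1) * (h * (p + 1)) ≤ (p - 1) * g := by
        calc (p - 1) * (h * (p + 1)) = (p - 1) * (p + 1) * h := by ring
          _ = Nat.card Z * g := h1.symm
          _ ≤ (p - 1) * g := Nat.mul_le_mul_right _ hZp
      exact Nat.le_of_mul_le_mul_left h3 (by omega)
    have e8 : Nat.card (ConjClasses D) ≤ (p - 1) * 5 := by
      rw [hk] at hkD
      exact hkD.trans (Nat.mul_le_mul (hkZ.trans hZp) hk5)
    rw [hE]
    have e9 : 5 ≤ p := by omega
    have e10 : h ≤ 8 ∧ (p = 5 → h ≤ 4) := by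
      constructor
      · by_contra hlt
        have : 9 * (p + 1) ≤ h * (p + 1) := Nat.mul_le_mul_right _ (by omega)
        rcases hg3 with h | h | h
        · omega
        · omega
        · have := e5 h
          omega
      · rintro rfl
        rcases hg3 with h | h | h
        · omega
        · omega
        · exact absurd rfl (e5 h)
    rcases Nat.lt_or_ge p 7 with h7 | h7
    · have hp5 : p = 5 := by omega
      have := e10.2 hp5
      subst hp5
      omega
    · have h8 : 7 * p ≤ p ^ 2 := by rw [sq]; exact Nat.mul_le_mul_right _ h7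
      have := e10.1
      omega
  rcases hcases with ⟨B, hB1, hB2, hB3, -⟩ | ⟨⟨e⟩⟩ | ⟨⟨e⟩⟩ | ⟨⟨e⟩⟩
  · left
    haveI := hB1
    exact isSemi_of_index_two htr hpE B hB2 hB3
  · right
    refine key 12 4 ?_ ?_ (by norm_num) (Or.inl rfl)
    · rw [Nat.card_congr e.toEquiv, nat_card_alternatingGroup, Nat.card_eq_fintype_card, Fintype.card_fin]; decide
    · rw [← SmallClass.conj_alt_four]
      exact card_conj_congr e
  · right
    refine key 24 5 ?_ ?_ (by norm_num) (Or.inr (Or.inl rfl))
    · rw [Nat.card_congr e.toEquiv, Nat.card_perm, Nat.card_eq_fintype_card, Fintype.card_fin]; decide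
    · rw [← SmallClass.conj_sym_four]
      exact card_conj_congr e
  · right
    refine key 60 5 ?_ ?_ (by norm_num) (Or.inr (Or.inr rfl))
    · rw [Nat.card_congr e.toEquiv, nat_card_alternatingGroup, Nat.card_eq_fintype_card, Fintype.card_fin]; decide
    · rw [← SmallClass.conj_alt_five]
      exact card_conj_congr e

end Cfsg.Agent.H717.Plane
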