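import Mathlib
import Cfsg.Agent.H717.Count

/-!
# The class number of coprime semilinear groups transitive on the nonzero vectors
-/

set_option autoImplicit false
set_option linter.style.haveILetI false

namespace Cfsg.Agent.H717.Semi

universe u v

/-- `D` acts semilinearly on the one-dimensional space `E` over a field `K` (with `|K| = |E|`). -/
def IsSemi (D : Type v) (E : Type u) [Group D] [AddCommGroup E] [DistribMulAction D E] : Prop :=
  ∃ (K : Type u) (_ : Field K) (_ : Finite K) (_ : Module K E) (σ : D →* (K ≃+* K)),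
    (∀ (d : D) (k : K) (e : E), d • (k • e) = (σ d k) • (d • e)) ∧ Nat.card K = Nat.card E

/-! ### Arithmetic -/

theorem arith_odd {f m : ℕ} (hf : 3 ≤ f) (hm : 2 ≤ m) :
    (m + 1) * f ^ (m / 2) ≤ f ^ m ∧ ((m + 1) * f ^ (m / 2) = f ^ m → f = 3 ∧ m = 2) := by
  obtain ⟨k, hk⟩ : ∃ k, m = m / 2 + k := ⟨m - m / 2, by omega⟩
  have hk1 : 1 ≤ k := by omega
  have hmk : m ≤ 2 * k := by omega
  have e1 : f ^ m = f ^ k * f ^ (m / 2) := by
    rw [← pow_add]; congr 1; omega
  have e2 : ∀ k : ℕ, 2 * k + 1 ≤ 3 ^ k := by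
    intro k
    induction k with
    | zero => norm_num
    | succ k ih => rw [pow_succ]; omega
  have e3 : 3 ^ k ≤ f ^ k := Nat.pow_le_pow_left hf k
  have e4 : m + 1 ≤ f ^ k := by have := e2 k; omega
  have hpos : 0 < f ^ (m / 2) := Nat.pow_pos (by omega)
  refine ⟨by rw [e1]; exact Nat.mul_le_mul_right _ e4, fun h => ?_⟩
  rw [e1] at h
  have h2 : m + 1 = f ^ k := Nat.eq_of_mul_eq_mul_right hpos h
  have hk2 : k = 1 := by
    by_contra hne
    obtain ⟨j, rfl⟩ : ∃ j, k = j + 2 := ⟨k - 2, by omega⟩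
    have h3 := e2 j
    have h4 : 3 ^ (j + 2) = 9 * 3 ^ j := by rw [pow_add]; ring
    omega
  subst hk2
  rw [pow_one] at h2
  omega

theorem arith_two {f m : ℕ} (hf : 2 ≤ f) (hm : 3 ≤ m) :
    (m + 1) * f ^ (m / 3) ≤ f ^ m ∧ ((m + 1) * f ^ (m / 3) = f ^ m → f = 2 ∧ m = 3) := by
  obtain ⟨k, hk⟩ : ∃ k, m = m / 3 + k := ⟨m - m / 3, by omega⟩
  have hk1 : 2 ≤ k := by omega
  have hmk : 2 * m ≤ 3 * k := by omega
  have e1 : f ^ m = f ^ k * f ^ (m / 3) := by
    rw [← pow_add]; congr 1; omega
  have e2 : ∀ k : ℕ, 3 * (k + 2) + 2 ≤ 2 * 2 ^ (k + 2) := by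
    intro k
    induction k with
    | zero => norm_num
    | succ k ih => rw [show k + 1 + 2 = (k + 2) + 1 from rfl, pow_succ]; omega
  have e3 : 2 ^ k ≤ f ^ k := Nat.pow_le_pow_left hf k
  obtain ⟨j, rfl⟩ : ∃ j, k = j + 2 := ⟨k - 2, by omega⟩
  have e4 : m + 1 ≤ f ^ (j + 2) := by have := e2 j; omega
  have hpos : 0 < f ^ (m / 3) := Nat.pow_pos (by omega)
  refine ⟨by rw [e1]; exact Nat.mul_le_mul_right _ e4, fun h => ?_⟩
  rw [e1] at h
  have h2 : m + 1 = f ^ (j + 2) := Nat.eq_of_mul_eq_mul_right hpos h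
  have hk2 : j = 0 := by
    by_contra hne
    obtain ⟨i, rfl⟩ : ∃ i, j = i + 1 := ⟨j - 1, by omega⟩
    have h3 := e2 i
    have h4 : 2 ^ (i + 1 + 2) = 2 * 2 ^ (i + 2) := by rw [show i + 1 + 2 = (i + 2) + 1 from rfl, pow_succ]; ring
    omega
  subst hk2
  rw [zero_add] at h2 hk
  have hm3 : m = 3 := by omega
  subst hm3
  refine ⟨?_, rfl⟩
  nlinarith

/-- The final inequality. -/
theorem final {q m s b k h : ℕ} (hm : 2 ≤ m) (hs : 1 ≤ s) (hb : b + 1 ≤ q) (hh : h ≤ m)
    (hk : m * k + (s - 1) ≤ b + m ^ 2 * (s - 1)) (hq : (m + 1) * s ≤ q) :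
    k + h ≤ q ∧ (k + h = q → (m + 1) * s = q ∧ b + 1 = q) := by
  obtain ⟨s', rfl⟩ : ∃ s', s = s' + 1 := ⟨s - 1, by omega⟩
  rw [Nat.add_sub_cancel] at hk
  obtain ⟨m', rfl⟩ : ∃ m', m = m' + 1 := ⟨m - 1, by omega⟩
  -- m (k + h) + m' q ≤ ...
  have h1 : (m' + 1) * (k + h) + s' ≤ b + (m' + 1) ^ 2 * s' + (m' + 1) * (m' + 1) := by
    have := Nat.mul_le_mul_left (m' + 1) hh
    nlinarith
  have h2 : (m' + 1) * (k + h) ≤ b + 1 + m' * ((m' + 1 + 1) * (s' + 1)) := by nlinarith
  have h3 := Nat.mul_le_mul_left m' hq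
  constructor
  · have h4 : (m' + 1) * (k + h) ≤ (m' + 1) * q := by nlinarith
    exact Nat.le_of_mul_le_mul_left h4 (Nat.succ_pos m')
  · intro heq
    rw [heq] at h2
    have h5 : m' * q ≤ m' * ((m' + 1 + 1) * (s' + 1)) := by nlinarith
    have h6 := Nat.le_of_mul_le_mul_left h5 (by omega)
    refine ⟨le_antisymm hq h6, ?_⟩
    have h7 : (m' + 1 + 1) * (s' + 1) = q := le_antisymm hq h6
    rw [h7] at h2
    nlinarith

/-! ### Fixed fields -/

theorem card_fixed {K : Type u} [Field K] [Finite K] (S : Subgroup (K ≃+* K)) :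
    Nat.card (FixedPoints.subfield S K) ^ Nat.card S = Nat.card K := by
  haveI : Finite (K ≃+* K) := Finite.of_injective (fun f : K ≃+* K => (f : K → K)) DFunLike.coe_injective
  haveI : Finite S := inferInstance
  haveI := Fintype.ofFinite S
  haveI : FaithfulSMul S K := ⟨fun {a b} h => Subtype.ext (RingEquiv.ext fun k => h k)⟩
  have h1 := FixedPoints.finrank_eq_card S K
  rw [Module.natCard_eq_pow_finrank (K := FixedPoints.subfield S K) (V := K), h1,
    Nat.card_eq_fintype_card (α := S)]

theorem two_le_card {K : Type u} [Field K] [Finite K] (F : Subfield K) : 2 ≤ Nat.card F :=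
  Finite.one_lt_card

theorem three_le_card {K : Type u} [Field K] [Finite K] (F : Subfield K) (h2 : (2 : K) ≠ 0) :
    3 ≤ Nat.card F := by
  have h : 2 ≤ Nat.card F := two_le_card F
  by_contra hlt
  have h3 : Nat.card F = 2 := by omega
  haveI := Fintype.ofFinite F
  rw [Nat.card_eq_fintype_card] at h3
  have h4 : ((Fintype.card F : ℕ) : F) = 0 := Nat.cast_card_eq_zero F
  rw [h3] at h4
  exact h2 (congrArg (fun x : F => (x : K)) h4)

section Main

variable {D : Type v} {E : Type u} [Group D] [Finite D] [AddCommGroup E] [Finite E] [Nontrivial E]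
  [DistribMulAction D E] [FaithfulSMul D E]

omit [Finite D] [Nontrivial E] [FaithfulSMul D E] in
/-- The order of a transitive linear group. -/
theorem card_eq (htr : ∀ x y : E, x ≠ 0 → y ≠ 0 → ∃ d : D, d • x = y) {v : E} (hv : v ≠ 0) :
    Nat.card D = (Nat.card E - 1) * Nat.card (MulAction.stabilizer D v) := by
  have h := MulAction.index_stabilizer D v
  have h2 : MulAction.orbit D v = {(0 : E)}ᶜ := by
    ext x
    rw [Set.mem_compl_iff, Set.mem_singleton_iff]
    constructor
    · rintro ⟨d, rfl⟩ h0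
      exact hv ((smul_eq_zero_iff_eq d).1 h0)
    · intro hx
      exact htr v x hv hx
  rw [h2, Set.ncard_compl, Set.ncard_singleton] at h
  rw [← h]
  exact (Subgroup.index_mul_card _).symm

/-- **The class number of coprime semilinear groups.** -/
theorem main
    {p : ℕ} [hp : Fact p.Prime] (hpE : ∀ e : E, p • e = 0) (hcop : ¬ p ∣ Nat.card D)
    (hS : IsSemi D E) {v : E} (hv : v ≠ 0) :
    Nat.card (ConjClasses D) + Nat.card (ConjClasses (MulAction.stabilizer D v)) ≤ Nat.card E ∧
    (Nat.card (ConjClasses D) + Nat.card (ConjClasses (MulAction.stabilizer D v)) = Nat.card E →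
      IsCyclic D ∨ (Nat.card E = 8 ∧ Nat.card D = 21) ∨ (Nat.card E = 9 ∧ Nat.card D = 16)) := by
  obtain ⟨K, _, _, _, σ, hσ, hK⟩ := hS
  set q := Nat.card E with hq
  haveI : Finite (K ≃+* K) := Finite.of_injective (fun f : K ≃+* K => (f : K → K)) DFunLike.coe_injective
  have hK1 : 1 < Nat.card K := Finite.one_lt_card
  -- dimension one
  haveI : Module.Finite K E := Module.Finite.of_finite
  have hfr : Module.finrank K E = 1 := by
    have h1 := Module.natCard_eq_pow_finrank (K := K) (V := E)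
    rw [← hq, ← hK] at h1
    by_contra hne
    rcases Nat.lt_or_ge (Module.finrank K E) 1 with h2 | h2
    · have h3 : Module.finrank K E = 0 := by omega
      rw [h3, pow_zero] at h1
      omega
    · have h3 : 2 ≤ Module.finrank K E := by omega
      have h4 := Nat.pow_le_pow_right (by omega : 0 < Nat.card K) h3
      rw [← h1] at h4
      nlinarith
  have hspan : ∀ e : E, ∃ k : K, k • v = e := by
    intro e
    exact exists_smul_eq_of_finrank_eq_one hfr hv e
  set B : Subgroup D := σ.ker with hB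
  -- scalars
  have hBs : ∀ b : D, b ∈ B → ∃ k : K, ∀ e : E, b • e = k • e := by
    intro b hb
    obtain ⟨k, hk⟩ := hspan (b • v)
    refine ⟨k, fun e => ?_⟩
    obtain ⟨l, rfl⟩ := hspan e
    rw [hσ, (show σ b = 1 from hb), ← hk, smul_comm]
    rfl
  choose! κ hκ using hBs
  have hκ0 : ∀ b ∈ B, κ b ≠ 0 := by
    intro b hb h0
    have := hκ b hb v
    rw [h0, zero_smul, smul_eq_zero_iff_eq] at this
    exact hv this
  have hκinj : ∀ a ∈ B, ∀ b ∈ B, κ a = κ b → a = b := by
    intro a ha b hb hab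
    apply FaithfulSMul.eq_of_smul_eq_smul (α := E)
    intro e
    rw [hκ a ha, hκ b hb, hab]
  have hBcomm : ∀ a ∈ B, ∀ b ∈ B, a * b = b * a := by
    intro a ha b hb
    apply FaithfulSMul.eq_of_smul_eq_smul (α := E)
    intro e
    rw [mul_smul, mul_smul, hκ a ha, hκ b hb, hκ b hb, hκ a ha, smul_comm]
  -- the order of `B`
  have hcount : ∀ (S : Subgroup D) (F : Subfield K), S ≤ B → (∀ b ∈ S, κ b ∈ F) →
      Nat.card S + 1 ≤ Nat.card F := by
    intro S F hSB hSF
    have h1 : Nat.card S ≤ ({0}ᶜ : Set F).ncard := by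
      rw [← Nat.card_coe_set_eq]
      refine Nat.card_le_card_of_injective
        (fun b : S => (⟨⟨κ b, hSF b b.2⟩, fun h => hκ0 b (hSB b.2) (congrArg Subtype.val h)⟩ : ({0}ᶜ : Set F))) ?_
      intro a b hab
      apply Subtype.ext
      refine hκinj _ (hSB a.2) _ (hSB b.2) ?_
      exact congrArg (fun x : ({0}ᶜ : Set F) => ((x : F) : K)) hab
    rw [Set.ncard_compl, Set.ncard_singleton] at h1
    have h2 := two_le_card F
    omega
  have hBq : Nat.card B + 1 ≤ q := by
    have := hcount B ⊤ le_rfl (fun _ _ => Subfield.mem_top _)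
    rw [← hK]
    refine this.trans ?_
    exact Nat.card_le_card_of_injective (fun x : (⊤ : Subfield K) => (x : K)) Subtype.val_injective
  -- the stabilizer
  set H := MulAction.stabilizer D v with hH
  have hHB : H ⊓ B = ⊥ := by
    rw [eq_bot_iff]
    rintro b ⟨h1, h2⟩
    rw [Subgroup.mem_bot]
    apply FaithfulSMul.eq_of_smul_eq_smul (α := E)
    intro e
    have h3 : κ b = 1 := by
      have h4 := hκ b h2 v
      rw [(show b • v = v from h1)] at h4
      have h5 : (κ b - 1) • v = 0 := by rw [sub_smul, one_smul, ← h4, sub_self]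
      rcases smul_eq_zero.1 h5 with h6 | h6
      · exact sub_eq_zero.1 h6
      · exact absurd h6 hv
    rw [hκ b h2, h3, one_smul, one_smul]
  set m := B.index with hm
  have hHm : Nat.card H ≤ m := by
    have h1 : B.relIndex H = Nat.card H := by
      rw [← Subgroup.inf_relIndex_left, hHB, Subgroup.relIndex_bot_left]
    rw [← h1]
    exact Nat.le_of_dvd (Nat.pos_of_ne_zero Subgroup.index_ne_zero_of_finite)
      (Subgroup.relIndex_dvd_index_of_normal B H)
  have hkH : Nat.card (ConjClasses H) ≤ Nat.card H :=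
    Nat.card_le_card_of_surjective ConjClasses.mk ConjClasses.mk_surjective

  have hfix0 := card_fixed (K := K) σ.range
  have hmr : Nat.card σ.range = m := by rw [hm, hB, Subgroup.index_ker]
  rw [hmr, hK] at hfix0
  have hbm : Nat.card B * m = Nat.card D := B.card_mul_index
  have hm0 : 0 < m := Nat.pos_of_ne_zero Subgroup.index_ne_zero_of_finite
  rcases Nat.lt_or_ge m 2 with hm1 | hm2
  · -- `m = 1`
    have hm1' : m = 1 := by omega
    have hBtop : B = ⊤ := by rw [← Subgroup.index_eq_one]; exact hm1'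
    have hmem : ∀ d : D, d ∈ B := fun d => by rw [hBtop]; trivial
    have hkD : Nat.card (ConjClasses D) ≤ Nat.card D :=
      Nat.card_le_card_of_surjective ConjClasses.mk ConjClasses.mk_surjective
    rw [hm1', mul_one] at hbm
    refine ⟨by omega, fun _ => Or.inl ?_⟩
    have hsm : ∀ k l : K, k • v = l • v → k = l := by
      intro k l h
      have h5 : (k - l) • v = 0 := by rw [sub_smul, h, sub_self]
      rcases smul_eq_zero.1 h5 with h6 | h6
      · exact sub_eq_zero.1 h6
      · exact absurd h6 hv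
    let g : D →* K :=
      { toFun := κ
        map_one' := hsm _ _ (by rw [← hκ 1 (hmem 1), one_smul, one_smul])
        map_mul' := fun a b => hsm _ _ (by
          rw [← hκ _ (hmem _), mul_smul, hκ b (hmem b), hκ a (hmem a), smul_smul]) }
    exact isCyclic_of_injective_ringHom g (fun a b h => hκinj a (hmem a) b (hmem b) h)
  · -- `m ≥ 2`
    set f := Nat.card (FixedPoints.subfield σ.range K) with hf
    have hfix : ∀ c : D, c ∉ B → ∃ j l : ℕ, 2 ≤ j ∧ m = j * l ∧ (j ∣ Nat.card D) ∧
        Nat.card ((B ⊓ Subgroup.centralizer ({c} : Set D) : Subgroup D)) + 1 ≤ f ^ l := by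
      intro c hc
      have hσc : σ c ≠ 1 := hc
      set Z := Subgroup.zpowers (σ c) with hZ
      have hZr : Z ≤ σ.range := by
        rw [hZ, Subgroup.zpowers_le]
        exact ⟨c, rfl⟩
      have hj2 : 2 ≤ Nat.card Z := by
        have h1 : 0 < Nat.card Z := Nat.card_pos
        by_contra hlt
        have h2 : Nat.card Z = 1 := by omega
        rw [Subgroup.card_eq_one, hZ, Subgroup.zpowers_eq_bot] at h2
        exact hσc h2
      obtain ⟨l, hl⟩ : Nat.card Z ∣ m := by rw [← hmr]; exact Subgroup.card_dvd_of_le hZr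
      refine ⟨Nat.card Z, l, hj2, hl, ?_, ?_⟩
      · have h3 : Nat.card Z ∣ m := ⟨l, hl⟩
        exact h3.trans ⟨Nat.card B, by rw [← hbm, mul_comm]⟩
      · have h4 : Nat.card (FixedPoints.subfield Z K) = f ^ l := by
          have h5 := card_fixed (K := K) Z
          rw [hK, ← hfix0, hl, mul_comm, pow_mul] at h5
          exact Nat.pow_left_injective (by omega : Nat.card Z ≠ 0) h5
        rw [← h4]
        refine hcount _ _ inf_le_left ?_
        intro b hb
        rw [Subgroup.mem_inf, Subgroup.mem_centralizer_singleton_iff] at hb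
        obtain ⟨hb1, hb2⟩ := hb
        have h6 : σ c (κ b) = κ b := by
          have h7 : ∀ e : E, (σ c (κ b)) • (c • e) = (κ b) • (c • e) := by
            intro e
            rw [← hσ, ← hκ b hb1, ← hκ b hb1, ← mul_smul, ← mul_smul, hb2]
          have h8 := h7 v
          have h9 : (σ c (κ b) - κ b) • (c • v) = 0 := by rw [sub_smul, h8, sub_self]
          rcases smul_eq_zero.1 h9 with h10 | h10
          · exact sub_eq_zero.1 h10
          · exact absurd ((smul_eq_zero_iff_eq c).1 h10) hv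
        have h11 : Z ≤ MulAction.stabilizer (K ≃+* K) (κ b) := by
          rw [hZ, Subgroup.zpowers_le]
          exact h6
        intro z
        exact h11 z.2
    have h2K : p ≠ 2 → (2 : K) ≠ 0 := by
      intro hp2 h2
      have h3 : (p : K) • v = 0 := by rw [Nat.cast_smul_eq_nsmul]; exact hpE v
      rcases smul_eq_zero.1 h3 with h4 | h4
      · have h5 : Odd p := hp.out.odd_of_ne_two hp2
        obtain ⟨r, hr⟩ := h5
        rw [hr, Nat.cast_add, Nat.cast_mul, Nat.cast_two, h2, zero_mul, zero_add, Nat.cast_one] at h4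
        exact one_ne_zero h4
      · exact hv h4
    by_cases hp2 : p = 2
    · -- characteristic two
      subst hp2
      have hodd : ¬ 2 ∣ m := fun h => hcop (h.trans ⟨Nat.card B, by rw [← hbm, mul_comm]⟩)
      have hf2 : 2 ≤ f := two_le_card _
      obtain ⟨ha1, ha2⟩ := arith_two hf2 (by omega : 3 ≤ m)
      rw [hfix0] at ha1 ha2
      have hs1 : 1 ≤ f ^ (m / 3) := Nat.one_le_pow _ _ (by omega)
      have ht : ∀ c : D, c ∉ B →
          Nat.card ((B ⊓ Subgroup.centralizer ({c} : Set D) : Subgroup D)) ≤ f ^ (m / 3) - 1 := by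
        intro c hc
        obtain ⟨j, l, hj, hjl, hjD, hle⟩ := hfix c hc
        have hj3 : 3 ≤ j := by
          by_contra hlt
          have : j = 2 := by omega
          exact hcop (this ▸ hjD)
        have hl3 : l ≤ m / 3 := by
          rw [Nat.le_div_iff_mul_le (by norm_num), hjl]
          nlinarith
        have := Nat.pow_le_pow_right (by omega : 0 < f) hl3
        omega
      have hk := Count.index_mul_le B _ ht
      rw [← hm] at hk
      obtain ⟨r1, r2⟩ := final (k := Nat.card (ConjClasses D)) (h := Nat.card H) hm2 hs1 hBq hHm hk ha1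
      refine ⟨(Nat.add_le_add_left hkH _).trans r1, fun heq => ?_⟩
      obtain ⟨r3, r4⟩ := r2 (by omega)
      obtain ⟨hf', hm'⟩ := ha2 r3
      rw [hf', hm'] at hfix0
      right; left
      refine ⟨by rw [← hfix0]; norm_num, ?_⟩
      rw [← hbm, hm']
      omega
    · have hf3 : 3 ≤ f := three_le_card _ (h2K hp2)
      obtain ⟨ha1, ha2⟩ := arith_odd hf3 hm2
      rw [hfix0] at ha1 ha2
      have hs1 : 1 ≤ f ^ (m / 2) := Nat.one_le_pow _ _ (by omega)
      have ht : ∀ c : D, c ∉ B →
          Nat.card ((B ⊓ Subgroup.centralizer ({c} : Set D) : Subgroup D)) ≤ f ^ (m / 2) - 1 := by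
        intro c hc
        obtain ⟨j, l, hj, hjl, hjD, hle⟩ := hfix c hc
        have hl3 : l ≤ m / 2 := by
          rw [Nat.le_div_iff_mul_le (by norm_num), hjl]
          nlinarith
        have := Nat.pow_le_pow_right (by omega : 0 < f) hl3
        omega
      have hk := Count.index_mul_le B _ ht
      rw [← hm] at hk
      obtain ⟨r1, r2⟩ := final (k := Nat.card (ConjClasses D)) (h := Nat.card H) hm2 hs1 hBq hHm hk ha1
      refine ⟨(Nat.add_le_add_left hkH _).trans r1, fun heq => ?_⟩
      obtain ⟨r3, r4⟩ := r2 (by omega)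
      obtain ⟨hf', hm'⟩ := ha2 r3
      rw [hf', hm'] at hfix0
      right; right
      refine ⟨by rw [← hfix0]; norm_num, ?_⟩
      rw [← hbm, hm']
      omega

end Main

end Cfsg.Agent.H717.Semi
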