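import Mathlib
import Cfsg.Agent.H717.FieldP
import Cfsg.Agent.H717.FT
import Cfsg.Agent.H717.Rep
import Cfsg.Agent.Solvable.FixedPointFree
import Cfsg.Agent.ClassicalGeometry.PSL2Basic
import Cfsg.Agent.ThreePrime.OrderThree

/-!
# Primitive prime divisors and coprime transitive linear groups
-/

set_option autoImplicit false
set_option linter.style.haveILetI false
set_option linter.unusedSectionVars false

namespace Cfsg.Agent.H717.Zsig

open Cfsg.Agent.H717.Semi Cfsg.Agent.H717.FieldP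

universe u v

variable {D : Type v} {E : Type u} [Group D] [Finite D] [AddCommGroup E] [Finite E] [Nontrivial E]
  [DistribMulAction D E] [FaithfulSMul D E]

theorem card_addSubgroup {p : ℕ} [hp : Fact p.Prime] {n : ℕ} (hn : Nat.card E = p ^ n) (F : AddSubgroup E) :
    ∃ i ≤ n, Nat.card F = p ^ i := by
  have h1 : Nat.card F ∣ p ^ n := by rw [← hn]; exact AddSubgroup.card_addSubgroup_dvd_card F
  exact (Nat.dvd_prime_pow hp.out).1 h1

/-- Elements of prime order `r`, `r` a primitive prime divisor of `p ^ n - 1`, act fixed point freely. -/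
theorem fpf_of_orderOf {p : ℕ} [hp : Fact p.Prime] {n : ℕ} (hn : Nat.card E = p ^ n) {r : ℕ} [hr : Fact r.Prime]
    (hrn : r ∣ p ^ n - 1) (hz : ∀ i : ℕ, 1 ≤ i → i < n → ¬ r ∣ p ^ i - 1) {b : D} (hb : orderOf b = r)
    {e : E} (he : b • e = e) : e = 0 := by
  by_contra he0
  have hpn : 2 ≤ p ^ n := by rw [← hn]; exact Finite.one_lt_card
  have hrp : r ≠ p := by
    rintro rfl
    have h1 : r ∣ r ^ n := by
      refine dvd_pow_self r ?_
      rintro rfl
      rw [pow_zero] at hpn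
      omega
    have h2 : r ∣ 1 := by
      have h3 : 1 = r ^ n - (r ^ n - 1) := by omega
      rw [h3]
      exact Nat.dvd_sub h1 hrn
    exact hr.out.one_lt.ne' (Nat.dvd_one.1 h2)
  let Z : Subgroup D := Subgroup.zpowers b
  have hZ : IsPGroup r Z := IsPGroup.of_card (n := 1) (by rw [pow_one, Nat.card_zpowers, hb])
  have h1 := hZ.card_modEq_card_fixedPoints E
  let F : AddSubgroup E :=
    { carrier := {x | b • x = x}
      zero_mem' := smul_zero b
      add_mem' := fun {x y} hx hy => by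
        change b • (x + y) = x + y
        rw [smul_add, (show b • x = x from hx), (show b • y = y from hy)]
      neg_mem' := fun {x} hx => by
        change b • (-x) = -x
        rw [smul_neg, (show b • x = x from hx)] }
  have h2 : MulAction.fixedPoints Z E = (F : Set E) := by
    ext x
    rw [MulAction.mem_fixedPoints]
    constructor
    · intro h
      exact h ⟨b, Subgroup.mem_zpowers b⟩
    · intro h z
      have h3 : Z ≤ MulAction.stabilizer D x := by
        rw [Subgroup.zpowers_le]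
        exact h
      exact h3 z.2
  have h4 : Nat.card (MulAction.fixedPoints Z E) = Nat.card F := by rw [h2]; rfl
  obtain ⟨i, hin, hi⟩ := card_addSubgroup hn F
  rw [h4, hn, hi] at h1
  have h5 : r ∣ p ^ n - p ^ i := (Nat.modEq_iff_dvd' (Nat.pow_le_pow_right hp.out.pos hin)).1 h1.symm
  have h6 : p ^ n - p ^ i = p ^ i * (p ^ (n - i) - 1) := by
    rw [Nat.mul_sub, mul_one, ← pow_add, Nat.add_sub_cancel' hin]
  rw [h6, hr.out.dvd_mul] at h5
  have h7 : r ∣ p ^ (n - i) - 1 := by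
    rcases h5 with h5 | h5
    · exact absurd ((Nat.prime_dvd_prime_iff_eq hr.out hp.out).1 (hr.out.dvd_of_dvd_pow h5)) hrp
    · exact h5
  have h8 : ¬ (1 ≤ n - i ∧ n - i < n) := fun h => hz _ h.1 h.2 h7
  have h9 : i ≠ 0 := by
    rintro rfl
    rw [pow_zero, AddSubgroup.card_eq_one] at hi
    have : e ∈ F := he
    rw [hi] at this
    exact he0 this
  have h10 : i = n := by omega
  have h11 : F = ⊤ := by
    rw [← AddSubgroup.card_eq_iff_eq_top, hi, h10, hn]
  have h12 : b = 1 := by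
    apply FaithfulSMul.eq_of_smul_eq_smul (α := E)
    intro x
    rw [one_smul]
    have : x ∈ F := by rw [h11]; trivial
    exact this
  rw [h12, orderOf_one] at hb
  exact hr.out.one_lt.ne hb

theorem fpf_of_pow {p : ℕ} [hp : Fact p.Prime] {n : ℕ} (hn : Nat.card E = p ^ n) {r : ℕ} [hr : Fact r.Prime]
    (hrn : r ∣ p ^ n - 1) (hz : ∀ i : ℕ, 1 ≤ i → i < n → ¬ r ∣ p ^ i - 1) {a : D} (ha : a ≠ 1) {k : ℕ}
    (hk : a ^ r ^ k = 1) {e : E} (he : a • e = e) : e = 0 := by
  have h1 : orderOf a ∣ r ^ k := orderOf_dvd_of_pow_eq_one hk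
  obtain ⟨j, -, hj⟩ := (Nat.dvd_prime_pow hr.out).1 h1
  have hj0 : j ≠ 0 := by
    rintro rfl
    rw [pow_zero, orderOf_eq_one_iff] at hj
    exact ha hj
  obtain ⟨i, rfl⟩ : ∃ i, j = i + 1 := ⟨j - 1, by omega⟩
  have h2 : orderOf (a ^ r ^ i) = r := by
    rw [orderOf_pow' _ (pow_ne_zero _ hr.out.ne_zero), hj, Nat.gcd_eq_right (pow_dvd_pow r (Nat.le_succ i)), pow_succ,
      Nat.mul_div_cancel_left _ (pow_pos hr.out.pos i)]
  refine fpf_of_orderOf hn hrn hz h2 ?_
  have h3 : a ∈ MulAction.stabilizer D e := he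
  exact (MulAction.stabilizer D e).pow_mem h3 _

theorem exists_orderOf_sq {p : ℕ} [hp : Fact p.Prime] {n : ℕ} (hn : Nat.card E = p ^ n) {r : ℕ}
    [hr : Fact r.Prime]
    (hrn : r ∣ p ^ n - 1) (hz : ∀ i : ℕ, 1 ≤ i → i < n → ¬ r ∣ p ^ i - 1) (h2 : r ^ 2 ∣ Nat.card D) :
    ∃ x : D, orderOf x = r ^ 2 := by
  obtain ⟨A, hA⟩ := Sylow.exists_subgroup_card_pow_prime r h2
  have hcomm : ∀ a b : A, a * b = b * a := IsPGroup.commutative_of_card_eq_prime_sq hA
  let φ : A →* MulAut (Multiplicative E) :=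
    { toFun := fun a => AddEquiv.toMultiplicative (DistribMulAction.toAddEquiv E (a : D))
      map_one' := by
        ext e
        exact congrArg Multiplicative.ofAdd (one_smul D e.toAdd)
      map_mul' := fun a b => by
        ext e
        exact congrArg Multiplicative.ofAdd (mul_smul (a : D) (b : D) e.toAdd) }
  have hcyc : IsCyclic A := by
    refine Cfsg.Agent.Solvable.FixedPointFree.isCyclic_of_comm' hcomm φ ?_
    intro a ha e he
    have h3 : (a : D) • e.toAdd = e.toAdd := congrArg Multiplicative.toAdd he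
    have h4 : (a : D) ≠ 1 := fun h => ha (Subtype.ext h)
    have h5 : (a : D) ^ r ^ 2 = 1 := by
      have h6 : a ^ Nat.card A = 1 := pow_card_eq_one'
      rw [hA] at h6
      exact congrArg Subtype.val h6
    exact congrArg Multiplicative.ofAdd (fpf_of_pow hn hrn hz h4 h5 h3)
  obtain ⟨x, hx⟩ := hcyc.exists_ofOrder_eq_natCard
  exact ⟨x, by rw [Subgroup.orderOf_coe, hx, hA]⟩

/-- A primitive prime divisor whose square divides the group order. -/
theorem isSemi_of_sq (htr : ∀ x y : E, x ≠ 0 → y ≠ 0 → ∃ d : D, d • x = y)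
    {p : ℕ} [hp : Fact p.Prime] (hpE : ∀ e : E, p • e = 0) (hcop : ¬ p ∣ Nat.card D)
    {n : ℕ} (hn : Nat.card E = p ^ n) {r : ℕ} [hr : Fact r.Prime] (hnr : n ≤ r)
    (hrn : r ∣ p ^ n - 1) (hz : ∀ i : ℕ, 1 ≤ i → i < n → ¬ r ∣ p ^ i - 1) (h2 : r ^ 2 ∣ Nat.card D) :
    IsSemi D E := by
  obtain ⟨x, hx⟩ := exists_orderOf_sq hn hrn hz h2
  obtain ⟨ρ, hρ⟩ := Rep.exists_rep (D := D) hpE hcop hn
  obtain ⟨N, hN, hNp, hN1⟩ := FT.exists_normal_of_sq hnr ρ hρ hx
  haveI := hN
  exact isSemi_of_isPGroup htr hpE hn hz N hNp hN1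

/-! ### The numerical part -/

/-- The order of `p` modulo a primitive prime divisor. -/
theorem dvd_sub_one {p n r : ℕ} (hr : r.Prime) (hn : 1 ≤ n) (hrn : r ∣ p ^ n - 1) (hpn : 1 ≤ p ^ n)
    (hp0 : 1 ≤ p) (hz : ∀ i : ℕ, 1 ≤ i → i < n → ¬ r ∣ p ^ i - 1) : n ∣ r - 1 := by
  haveI : Fact r.Prime := ⟨hr⟩
  have key : ∀ i : ℕ, (p : ZMod r) ^ i = 1 ↔ r ∣ p ^ i - 1 := by
    intro i
    have h1 : 1 ≤ p ^ i := Nat.one_le_pow _ _ hp0
    rw [← Nat.modEq_iff_dvd' h1, ← ZMod.natCast_eq_natCast_iff, Nat.cast_one, Nat.cast_pow, eq_comm]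
  have hp : (p : ZMod r) ≠ 0 := by
    intro h
    have h2 := (key n).2 hrn
    rw [h, zero_pow (by omega)] at h2
    exact zero_ne_one h2
  have h3 : orderOf (p : ZMod r) = n := by
    refine (orderOf_eq_iff (by omega)).2 ⟨(key n).2 hrn, ?_⟩
    intro m hm hm0 h
    exact hz m hm0 hm ((key m).1 h)
  rw [← h3]
  exact ZMod.orderOf_dvd_card_sub_one hp

/-- No coprime irreducible `PSL(2, r)` of degree `(r - 1) / 2` is transitive. -/
theorem numeric {p n d j r : ℕ} (hp : p.Prime) (hr : r.Prime) (hn : 3 ≤ n) (hr1 : 2 * n + 1 = r) (hdj : d * j = n)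
    (hj : 2 ≤ j) (hp3 : 5 ≤ p) (hdiv : (p ^ n - 1) ∣ (p ^ d - 1) * (2 * n * (n + 1) * (2 * n + 1)))
    (hcop : ¬ p ∣ 2 * n * (n + 1) * (2 * n + 1)) : False := by
  have hd : 1 ≤ d := by
    rcases Nat.eq_zero_or_pos d with h | h
    · rw [h, zero_mul] at hdj; omega
    · exact h
  have hd2 : 2 * d ≤ n := by rw [← hdj, mul_comm]; exact Nat.mul_le_mul_left d hj
  set N := 2 * n * (n + 1) * (2 * n + 1) with hN
  have hN0 : 0 < N := by positivity
  have h1 : p ^ (n - d) ≤ N := by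
    by_contra hlt
    push Not at hlt
    have h2 : p ^ n - 1 ≤ (p ^ d - 1) * N := by
      refine Nat.le_of_dvd ?_ hdiv
      have : 2 ≤ p ^ d := hp.two_le.trans (Nat.le_self_pow (by omega) p)
      exact Nat.mul_pos (by omega) hN0
    have h3 : p ^ n = p ^ d * p ^ (n - d) := by rw [← pow_add]; congr 1; omega
    have h4 : (p ^ d - 1) * N + N = p ^ d * N := by
      have : 1 ≤ p ^ d := Nat.one_le_pow _ _ hp.pos
      obtain ⟨t, ht⟩ : ∃ t, p ^ d = t + 1 := ⟨p ^ d - 1, by omega⟩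
      rw [ht, Nat.add_sub_cancel]; ring
    have h5 : p ^ d * (N + 1) ≤ p ^ n := by rw [h3]; exact Nat.mul_le_mul_left _ hlt
    have h6 : 1 ≤ p ^ d := Nat.one_le_pow _ _ hp.pos
    have h7 : p ^ d * (N + 1) = p ^ d * N + p ^ d := by ring
    omega
  have hn10 : n ≤ 10 := by
    by_contra hlt
    push Not at hlt
    have h2 : 5 ^ ((n + 1) / 2) ≤ N := by
      refine le_trans ?_ h1
      refine (Nat.pow_le_pow_left hp3 _).trans (Nat.pow_le_pow_right hp.pos (by omega))
    have h3 : ∀ k : ℕ, 6 ≤ k → 2 * (2 * k) * (2 * k + 1) * (2 * (2 * k) + 1) < 5 ^ k := by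
      intro k hk
      induction k, hk using Nat.le_induction with
      | base => norm_num
      | succ k hk ih =>
        rw [pow_succ]
        nlinarith [Nat.mul_le_mul hk hk, Nat.mul_le_mul (Nat.mul_le_mul hk hk) hk]
    have h4 := h3 ((n + 1) / 2) (by omega)
    have h5 : n ≤ 2 * ((n + 1) / 2) := by omega
    have h6 : N ≤ 2 * (2 * ((n + 1) / 2)) * (2 * ((n + 1) / 2) + 1) * (2 * (2 * ((n + 1) / 2)) + 1) := by
      rw [hN]
      gcongr
    omega
  have hp16 : p < 17 := by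
    by_contra hlt
    push Not at hlt
    rcases Nat.lt_or_ge n 5 with h5 | h5
    · have h2 : p ^ 2 ≤ N := le_trans (Nat.pow_le_pow_right hp.pos (by omega)) h1
      have h3 : 17 ^ 2 ≤ N := (Nat.pow_le_pow_left hlt 2).trans h2
      have h4 : n = 3 ∨ n = 4 := by omega
      rcases h4 with h4 | h4
      · rw [hN, h4] at h3; norm_num at h3
      · rw [h4] at hr1
        rw [← hr1] at hr
        norm_num at hr
    · have h2 : p ^ 3 ≤ N := le_trans (Nat.pow_le_pow_right hp.pos (by omega)) h1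
      have h3 : 17 ^ 3 ≤ N := (Nat.pow_le_pow_left hlt 3).trans h2
      have h4 : N ≤ 2 * 10 * (10 + 1) * (2 * 10 + 1) := by rw [hN]; gcongr
      omega
  have hd5 : d ≤ 5 := by omega
  clear_value N
  have hrn : n ≠ 4 ∧ n ≠ 7 ∧ n ≠ 10 := by
    refine ⟨?_, ?_, ?_⟩ <;> rintro rfl <;> rw [← hr1] at hr <;> norm_num at hr
  have hpp : p = 5 ∨ p = 7 ∨ p = 11 ∨ p = 13 := by
    interval_cases p <;> first | omega | (exfalso; norm_num at hp)
  have hnn : n = 3 ∨ n = 5 ∨ n = 6 ∨ n = 8 ∨ n = 9 := by omega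
  subst hN
  rcases hnn with rfl | rfl | rfl | rfl | rfl <;> interval_cases d <;>
    rcases hpp with rfl | rfl | rfl | rfl <;> first | omega | (revert hdiv hcop; norm_num)

end Cfsg.Agent.H717.Zsig
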